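import Cfsg.Agent.Lib.Kreknin.Graded
import Cfsg.Agent.Lib.Kreknin.Associated
import Cfsg.Agent.Lib.FPF.FixedPointFree
import Mathlib.Algebra.Lie.BaseChange
import Mathlib.RingTheory.AdjoinRoot
import Mathlib.RingTheory.Polynomial.Cyclotomic.Basic
import Mathlib.GroupTheory.PGroup

set_option autoImplicit false

/-! Higman–Kreknin–Kostrikin: the class of a group with a fixed-point-free automorphism of prime order. -/

namespace Cfsg.Agent.Lib.Kreknin

open scoped TensorProduct commutatorElement
open Polynomial

universe u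

/-- The extension of the ground ring by a root of unity. -/
abbrev Rt (p : ℕ) : Type := AdjoinRoot (cyclotomic p ℤ)

theorem sum_root_pow (p : ℕ) [Fact p.Prime] : ∑ i ∈ Finset.range p, AdjoinRoot.root (cyclotomic p ℤ) ^ i = 0 := by
  have h := AdjoinRoot.eval₂_root (cyclotomic p ℤ)
  have hg : cyclotomic p ℤ = ∑ i ∈ Finset.range p, X ^ i := cyclotomic_prime ℤ p
  conv at h =>
    lhs
    arg 3
    rw [hg]
  simpa [eval₂_finsetSum, eval₂_X_pow] using h

theorem root_pow_p (p : ℕ) [Fact p.Prime] : AdjoinRoot.root (cyclotomic p ℤ) ^ p = 1 := by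
  have h := geom_sum_mul (AdjoinRoot.root (cyclotomic p ℤ)) p
  rw [sum_root_pow, zero_mul] at h
  exact sub_eq_zero.mp h.symm

variable {p : ℕ} [hp : Fact p.Prime]

/-- Powers of the root indexed by residues. -/
noncomputable def om (d : ZMod p) : Rt p := AdjoinRoot.root (cyclotomic p ℤ) ^ d.val

theorem om_add (a b : ZMod p) : om (a + b) = om a * om b := by
  rw [om, om, om, ← pow_add, ZMod.val_add, ← pow_eq_pow_mod _ (root_pow_p p)]

theorem om_zero : om (0 : ZMod p) = 1 := by rw [om, ZMod.val_zero, pow_zero]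

theorem sum_om : ∑ d : ZMod p, om d = 0 := by
  rw [← sum_root_pow p]
  refine Finset.sum_bij (fun d _ => d.val) (fun d _ => Finset.mem_range.mpr (ZMod.val_lt d))
    (fun a _ b _ h => ZMod.val_injective p h) (fun i hi => ⟨(i : ZMod p), Finset.mem_univ _, ?_⟩) fun d _ => rfl
  rw [ZMod.val_natCast, Nat.mod_eq_of_lt (Finset.mem_range.mp hi)]

theorem sum_om_mul {c : ZMod p} (hc : c ≠ 0) : ∑ d : ZMod p, om (c * d) = 0 := by
  rw [← sum_om (p := p)]
  exact Fintype.sum_bijective _ (mulLeft_bijective₀ c hc) _ _ fun d => rfl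

variable {G : Type u} [Group G]

/-- The extended Lie ring. -/
abbrev Ext (p : ℕ) (G : Type u) [Group G] := Rt p ⊗[ℤ] Assoc G

-- use the bracket of the Lie ring structure throughout
attribute [-instance] LieAlgebra.ExtendScalars.instBracketTensorProduct

omit hp in
theorem ext_bracket_tmul (r t : Rt p) (x y : Assoc G) :
    (⁅r ⊗ₜ[ℤ] x, t ⊗ₜ[ℤ] y⁆ : Ext p G) = (r * t) ⊗ₜ ⁅x, y⁆ :=
  LieAlgebra.ExtendScalars.bracket_tmul ℤ (Rt p) (Assoc G) (Assoc G) r t x y

/-- The induced map on the extension. -/
noncomputable def extMap (p : ℕ) (α : MulAut G) : Ext p G →ₗ[Rt p] Ext p G :=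
  (assocMap α).toIntLinearMap.baseChange (Rt p)

theorem extMap_tmul (α : MulAut G) (r : Rt p) (x : Assoc G) : extMap p α (r ⊗ₜ x) = r ⊗ₜ assocMap α x := rfl

theorem extMap_lie (α : MulAut G) (x y : Ext p G) : extMap p α ⁅x, y⁆ = ⁅extMap p α x, extMap p α y⁆ := by
  induction x using TensorProduct.induction_on with
  | zero => rw [zero_lie, map_zero, zero_lie]
  | add u v hu hv => rw [add_lie, map_add, map_add, add_lie, hu, hv]
  | tmul r a =>
    induction y using TensorProduct.induction_on with
    | zero => rw [lie_zero, map_zero, lie_zero]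
    | add u v hu hv => rw [lie_add, map_add, map_add, lie_add, hu, hv]
    | tmul s b =>
      rw [ext_bracket_tmul, extMap_tmul, extMap_tmul, extMap_tmul, ext_bracket_tmul, assocMap_lie]

/-- The eigencomponents. -/
noncomputable def eig (p : ℕ) [Fact p.Prime] (α : MulAut G) (d : ZMod p) : AddSubgroup (Ext p G) :=
  (Module.End.eigenspace (extMap p α) (om d)).toAddSubgroup

theorem mem_eig {α : MulAut G} {d : ZMod p} {x : Ext p G} : x ∈ eig p α d ↔ extMap p α x = om d • x :=
  Module.End.mem_eigenspace_iff

theorem one_tmul_injective : Function.Injective (fun x : Assoc G => ((1 : Rt p) ⊗ₜ[ℤ] x : Ext p G)) := by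
  have hm : (cyclotomic p ℤ).Monic := cyclotomic.monic p ℤ
  have hdeg : 0 < (cyclotomic p ℤ).natDegree := by
    rw [natDegree_cyclotomic]; exact Nat.totient_pos.mpr hp.out.pos
  let b := AdjoinRoot.powerBasis' hm
  have hdim : 0 < b.dim := by rw [AdjoinRoot.powerBasis'_dim]; exact hdeg
  let f : Rt p →ₗ[ℤ] ℤ := b.basis.coord ⟨0, hdim⟩
  have hf : f 1 = 1 := by
    have h1 : b.basis ⟨0, hdim⟩ = 1 := by rw [b.basis_eq_pow, pow_zero]
    show b.basis.repr 1 ⟨0, hdim⟩ = 1
    rw [← h1, Module.Basis.repr_self, Finsupp.single_eq_same]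
  refine Function.LeftInverse.injective (g := fun z => TensorProduct.lid ℤ (Assoc G) (TensorProduct.map f LinearMap.id z))
    fun x => ?_
  show TensorProduct.lid ℤ (Assoc G) (TensorProduct.map f LinearMap.id (1 ⊗ₜ x)) = x
  rw [TensorProduct.map_tmul, hf, TensorProduct.lid_tmul, one_smul, LinearMap.id_apply]

/-- The main estimate, for a given bound on graded families. -/
theorem gam_eq_bot [Finite G] (α : MulAut G) (hα : α ^ p = 1) (hfpf : ∀ g : G, α g = g → g = 1) (c : ℕ)
    (hbound : ∀ C : ZMod p → AddSubgroup (Ext p G), IsGr C → ∀ d, iterBr C C c d = ⊥) : gam G c = ⊥ := by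
  classical
  have hp' : p.Prime := hp.out
  haveI hnil : Group.IsNilpotent G := FPF.isNilpotent_of_isFPF hp' α hfpf hα
  -- `p` does not divide the order
  have hpG : ¬ p ∣ Nat.card G := by
    intro hd
    have hP : IsPGroup p (Subgroup.zpowers α) := by
      obtain ⟨i, -, hi⟩ := (Nat.dvd_prime_pow hp').mp (show orderOf α ∣ p ^ 1 by
        rw [pow_one]; exact orderOf_dvd_of_pow_eq_one hα)
      exact IsPGroup.of_card (n := i) (by rw [Nat.card_zpowers, hi])
    have hfix : Nat.card (MulAction.fixedPoints (Subgroup.zpowers α) G) = 1 := by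
      rw [Nat.card_eq_one_iff_unique]
      refine ⟨⟨fun a b => ?_⟩, ⟨⟨1, fun g => map_one (g : MulAut G)⟩⟩⟩
      have h : ∀ c : MulAction.fixedPoints (Subgroup.zpowers α) G, (c : G) = 1 := fun c =>
        hfpf _ (c.2 ⟨α, Subgroup.mem_zpowers α⟩)
      exact Subtype.ext ((h a).trans (h b).symm)
    have h := hP.card_modEq_card_fixedPoints G
    rw [hfix, Nat.ModEq, Nat.mod_eq_of_lt hp'.one_lt, Nat.mod_eq_zero_of_dvd hd] at h
    exact zero_ne_one h
  -- `p` acts invertibly
  obtain ⟨u, v, huv⟩ : ∃ u v : ℤ, u * p + v * Nat.card G = 1 := by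
    refine Int.isCoprime_iff_gcd_eq_one.mpr ?_
    rw [Int.gcd_natCast_natCast]
    exact hp'.coprime_iff_not_dvd.mpr hpG
  have hkill : ∀ x : Assoc G, Nat.card G • x = 0 := by
    intro x
    induction x using assoc_induction with
    | h0 => rw [smul_zero]
    | hadd a b ha hb => rw [smul_add, ha, hb, add_zero]
    | hcls k g hg => rw [← cls_pow hg, pow_card_eq_one', cls_one]
  have hinvp : ∀ y : Ext p G, u • ((p : ℤ) • y) = y := by
    intro y
    have h0 : ((Nat.card G : ℤ)) • y = 0 := by
      induction y using TensorProduct.induction_on with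
      | zero => rw [smul_zero]
      | add a b ha hb => rw [smul_add, ha, hb, add_zero]
      | tmul r x => rw [← TensorProduct.tmul_smul, natCast_zsmul, hkill, TensorProduct.tmul_zero]
    calc u • ((p : ℤ) • y) = (u * p) • y + v • ((Nat.card G : ℤ) • y) := by
          rw [h0, smul_zero, add_zero, ← mul_smul]
      _ = y := by rw [← mul_smul, ← add_smul, huv, one_smul]
  -- the trace of the automorphism vanishes
  have hsumL : ∀ x : Assoc G, ∑ i ∈ Finset.range p, (⇑(assocMap α))^[i] x = 0 := by
    intro x
    induction x using assoc_induction with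
    | h0 => exact Finset.sum_eq_zero fun i _ => iterate_map_zero (assocMap α) i
    | hadd a b ha hb =>
      rw [Finset.sum_congr rfl fun i _ => iterate_map_add (assocMap α) i a b, Finset.sum_add_distrib,
        ha, hb, add_zero]
    | hcls k g hg =>
      have hit : ∀ i : ℕ, (⇑(assocMap α))^[i] (cls k g) = cls k ((α ^ i) g) := by
        intro i
        induction i with
        | zero => rfl
        | succ i ih => rw [Function.iterate_succ_apply', ih, assocMap_cls α (apply_mem_gam _ hg), pow_succ']; rfl
      rw [Finset.sum_congr rfl fun i _ => hit i]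
      let P : ℕ → G := fun t => Nat.rec 1 (fun i acc => acc * (α ^ i) g) t
      have hP : ∀ t, P t ∈ gam G k ∧ ∑ i ∈ Finset.range t, cls k ((α ^ i) g) = cls k (P t) := by
        intro t
        induction t with
        | zero => exact ⟨one_mem _, by rw [Finset.range_zero, Finset.sum_empty]; exact (cls_one k).symm⟩
        | succ t iht =>
          refine ⟨mul_mem iht.1 (apply_mem_gam _ hg), ?_⟩
          rw [Finset.sum_range_succ, iht.2]
          exact (cls_mul iht.1 (apply_mem_gam _ hg)).symm
      rw [(hP p).2, cls_eq_zero_iff (hP p).1]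
      have hshift : ∀ t, g * α (P t) = P (t + 1) := by
        intro t
        induction t with
        | zero => show g * α 1 = 1 * (α ^ 0) g; simp
        | succ t iht =>
          show g * α (P t * (α ^ t) g) = P (t + 1) * (α ^ (t + 1)) g
          rw [map_mul, ← mul_assoc, iht, pow_succ']; rfl
      have h1 : g * α (P p) = P p * g := by
        rw [hshift]
        show P p * (α ^ p) g = P p * g
        rw [hα]; rfl
      -- a fixed coset contains a fixed point
      have hK : ∀ w ∈ gam G (k + 1), w⁻¹ * α w ∈ gam G (k + 1) := fun w hw => mul_mem (inv_mem hw) (apply_mem_gam α hw)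
      let f : gam G (k + 1) → gam G (k + 1) := fun w => ⟨_, hK w w.2⟩
      have key : ∀ a b : G, a⁻¹ * α a = b⁻¹ * α b → a = b := by
        intro a b h
        have h2 : α (b * a⁻¹) = b * a⁻¹ := by
          rw [map_mul, map_inv, mul_inv_eq_iff_eq_mul]
          calc α b = b * (b⁻¹ * α b) := by group
            _ = b * (a⁻¹ * α a) := by rw [h]
            _ = b * a⁻¹ * α a := by group
        exact (mul_inv_eq_one.mp (hfpf _ h2)).symm
      have hf : Function.Injective f := fun a b h => Subtype.ext (key _ _ (congrArg Subtype.val h))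
      have hPc : (P p)⁻¹ * α (P p) ∈ gam G (k + 1) := by
        have h3 : (P p)⁻¹ * α (P p) = ⁅(P p)⁻¹, g⁻¹⁆ := by
          calc (P p)⁻¹ * α (P p) = (P p)⁻¹ * g⁻¹ * (g * α (P p)) := by group
            _ = (P p)⁻¹ * g⁻¹ * (P p * g) := by rw [h1]
            _ = _ := by rw [commutatorElement_def]; group
        rw [h3]
        exact comm_mem_succ (inv_mem (hP p).1) _
      obtain ⟨w, hw⟩ := (Finite.injective_iff_surjective.mp hf) ⟨_, hPc⟩
      rw [← key _ _ (congrArg Subtype.val hw)]
      exact w.2
  -- the extension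
  set Φ := extMap p α with hΦ
  have hΦpow : ∀ (i : ℕ) (r : Rt p) (x : Assoc G), (Φ ^ i) (r ⊗ₜ x) = r ⊗ₜ[ℤ] (⇑(assocMap α))^[i] x := by
    intro i
    induction i with
    | zero => intro r x; rfl
    | succ i ih => intro r x; rw [pow_succ', Module.End.mul_apply, ih, Function.iterate_succ_apply']; rfl
  have hsum : ∀ y : Ext p G, ∑ i ∈ Finset.range p, (Φ ^ i) y = 0 := by
    intro y
    induction y using TensorProduct.induction_on with
    | zero => simp
    | add a b ha hb => simp only [map_add, Finset.sum_add_distrib, ha, hb, add_zero]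
    | tmul r x => simp only [hΦpow, ← TensorProduct.tmul_sum, hsumL, TensorProduct.tmul_zero]
  have hΦp : ∀ y : Ext p G, (Φ ^ p) y = y := by
    intro y
    have h1 := hsum (Φ y)
    have h2 := hsum y
    have h3 := Finset.sum_range_succ' (fun i => (Φ ^ i) y) p
    rw [Finset.sum_range_succ, h2, zero_add] at h3
    simp only [pow_succ, Module.End.mul_apply, h1, pow_zero, Module.End.one_apply, zero_add] at h3
    exact h3
  let C := eig p α
  have hgr : IsGr C := by
    refine ⟨fun a b x hx y hy => ?_, ?_⟩
    · rw [mem_eig] at hx hy ⊢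
      rw [extMap_lie, hx, hy]
      refine (smul_lie (R := Rt p) (om a) x (om b • y)).trans ((congrArg (om a • ·) (lie_smul (R := Rt p) (om b) x y)).trans ?_)
      rw [smul_smul, om_add]
    · rw [eq_bot_iff]
      intro x hx
      rw [mem_eig, om_zero, one_smul] at hx
      have hfix : ∀ i : ℕ, (Φ ^ i) x = x := by
        intro i
        induction i with
        | zero => rfl
        | succ i ih => rw [pow_succ', Module.End.mul_apply, ih]; exact hx
      have h1 := hsum x
      rw [Finset.sum_congr rfl fun i _ => hfix i, Finset.sum_const, Finset.card_range, ← natCast_zsmul] at h1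
      rw [AddSubgroup.mem_bot, ← hinvp x, h1, smul_zero]
  -- the components span
  have htop : ∀ y : Ext p G, y ∈ ⨆ d, C d := by
    intro y
    let e : ZMod p → Ext p G := fun d => ∑ i : ZMod p, om (-(d * i)) • (Φ ^ i.val) y
    have he : ∀ d, e d ∈ C d := by
      intro d
      rw [mem_eig, map_sum, Finset.smul_sum]
      refine Fintype.sum_equiv (Equiv.addRight (1 : ZMod p)) _ _ fun i => ?_
      rw [map_smul, Equiv.coe_addRight, smul_smul, ← om_add, show d + -(d * (i + 1)) = -(d * i) by ring]
      congr 1
      show Φ ((Φ ^ i.val) y) = (Φ ^ (i + 1).val) y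
      rw [← Module.End.mul_apply, ← pow_succ', ZMod.val_add, ZMod.val_one]
      conv_lhs => rw [← Nat.mod_add_div (i.val + 1) p, pow_add, Module.End.mul_apply]
      congr 1
      generalize (i.val + 1) / p = t
      induction t with
      | zero => rfl
      | succ t iht => rw [Nat.mul_succ, pow_add, Module.End.mul_apply, hΦp, iht]
    have hsume : ∑ d, e d = (p : ℤ) • y := by
      simp only [e]
      rw [Finset.sum_comm, Finset.sum_eq_single (0 : ZMod p)]
      · simp only [mul_zero, neg_zero, om_zero, one_smul, ZMod.val_zero, pow_zero, Module.End.one_apply,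
          Finset.sum_const, Finset.card_univ, ZMod.card, natCast_zsmul]
      · intro i _ hi
        rw [← Finset.sum_smul]
        convert zero_smul (Rt p) ((Φ ^ i.val) y) using 2
        rw [← sum_om_mul (c := -i) (neg_ne_zero.mpr hi)]
        exact Finset.sum_congr rfl fun d _ => congrArg om (by ring)
      · simp
    rw [← hinvp y, ← hsume]
    exact zsmul_mem (sum_mem fun d _ => AddSubgroup.mem_iSup_of_mem d (he d)) u
  -- brackets reach every layer
  have hreach : ∀ m : ℕ, ∀ g ∈ gam G m, ((1 : Rt p) ⊗ₜ[ℤ] cls m g : Ext p G) ∈ ⨆ d, iterBr C C m d := by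
    intro m
    induction m with
    | zero => exact fun g _ => htop _
    | succ m ihm =>
      intro g hg
      suffices h : g ∈ gam G (m + 1) ∧ ((1 : Rt p) ⊗ₜ[ℤ] cls (m + 1) g : Ext p G) ∈ ⨆ d, iterBr C C (m + 1) d from h.2
      rw [gam_succ, Subgroup.commutator_def] at hg
      induction hg using Subgroup.closure_induction with
      | mem z hz =>
        obtain ⟨a, ha, b, -, rfl⟩ := hz
        have hb0 : b ∈ gam G 0 := Subgroup.mem_top b
        refine ⟨comm_mem_succ ha b, ?_⟩
        have hl := lie_cls ha hb0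
        rw [show m + 0 + 1 = m + 1 by omega] at hl
        rw [← hl, ← one_mul (1 : Rt p), ← ext_bracket_tmul]
        have hmem : ∀ x ∈ ⨆ d, iterBr C C m d, ∀ y ∈ ⨆ d, C d, ⁅x, y⁆ ∈ ⨆ d, iterBr C C (m + 1) d := by
          intro x hx y hy
          refine AddSubgroup.iSup_induction (iterBr C C m) (C := fun x => ⁅x, y⁆ ∈ ⨆ d, iterBr C C (m + 1) d) hx
            (fun d x hx => ?_) ?_ ?_
          · refine AddSubgroup.iSup_induction C (C := fun y => ⁅x, y⁆ ∈ ⨆ d, iterBr C C (m + 1) d) hy
              (fun e y hy => AddSubgroup.mem_iSup_of_mem (d + e) (lie_mem_br hx hy)) ?_ ?_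
            · rw [lie_zero]; exact zero_mem _
            · intro u v ihu ihv; rw [lie_add]; exact add_mem ihu ihv
          · rw [zero_lie]; exact zero_mem _
          · intro u v ihu ihv; rw [add_lie]; exact add_mem ihu ihv
        exact hmem _ (ihm a ha) _ (htop _)
      | one => refine ⟨one_mem _, ?_⟩; rw [cls_one, TensorProduct.tmul_zero]; exact zero_mem _
      | mul a b _ _ iha ihb =>
        refine ⟨mul_mem iha.1 ihb.1, ?_⟩
        rw [cls_mul iha.1 ihb.1, TensorProduct.tmul_add]
        exact add_mem iha.2 ihb.2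
      | inv a _ iha =>
        refine ⟨inv_mem iha.1, ?_⟩
        rw [cls_inv iha.1, TensorProduct.tmul_neg]
        exact neg_mem iha.2
  have hstable : gam G c ≤ gam G (c + 1) := by
    intro g hg
    have h1 := hreach c g hg
    simp only [hbound C hgr, iSup_bot, AddSubgroup.mem_bot] at h1
    exact (cls_eq_zero_iff hg).mp (one_tmul_injective (p := p) (h1.trans (TensorProduct.tmul_zero _ _).symm))
  have hall : ∀ t, gam G c ≤ gam G (c + t) := by
    intro t
    induction t with
    | zero => exact le_rfl
    | succ t iht =>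
      refine hstable.trans ?_
      rw [gam_succ, show c + (t + 1) = c + t + 1 from rfl, gam_succ]
      exact Subgroup.commutator_mono iht le_rfl
  obtain ⟨t, ht⟩ := (Subgroup.isNilpotent_iff_lowerCentralSeries (⊤ : Subgroup G)).mp (Group.isNilpotent_top.mpr hnil)
  exact le_bot_iff.mp ((hall t).trans ((gam_antitone (Nat.le_add_left t c)).trans ht.le))

end Cfsg.Agent.Lib.Kreknin
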