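import Mathlib.Algebra.Lie.Basic
import Mathlib.Algebra.Group.Subgroup.Lattice
import Mathlib.Data.ZMod.Basic
import Mathlib.Algebra.Field.ZMod
import Mathlib.Tactic.Ring
import Mathlib.Algebra.BigOperators.Ring.Finset
import Mathlib.Algebra.BigOperators.Intervals

set_option autoImplicit false

/-! Kreknin and Higman: `ZMod p`-graded families in a Lie ring with zero component of degree zero. -/

namespace Cfsg.Agent.Lib.Kreknin

universe u

variable {L : Type u} [LieRing L] {p : ℕ} [Fact p.Prime]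

/-- The brackets of two graded families. -/
def br (X Y : ZMod p → AddSubgroup L) (d : ZMod p) : AddSubgroup L :=
  AddSubgroup.closure {z | ∃ a b, a + b = d ∧ ∃ x ∈ X a, ∃ y ∈ Y b, z = ⁅x, y⁆}

theorem lie_mem_br {X Y : ZMod p → AddSubgroup L} {a b : ZMod p} {x y : L} (hx : x ∈ X a) (hy : y ∈ Y b) :
    ⁅x, y⁆ ∈ br X Y (a + b) :=
  AddSubgroup.subset_closure ⟨a, b, rfl, x, hx, y, hy, rfl⟩

theorem br_le {X Y Z : ZMod p → AddSubgroup L} (h : ∀ a b, ∀ x ∈ X a, ∀ y ∈ Y b, ⁅x, y⁆ ∈ Z (a + b)) (d : ZMod p) :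
    br X Y d ≤ Z d := by
  rw [br, AddSubgroup.closure_le]
  rintro _ ⟨a, b, rfl, x, hx, y, hy, rfl⟩
  exact h a b x hx y hy

theorem br_mono {X X' Y Y' : ZMod p → AddSubgroup L} (hX : ∀ d, X d ≤ X' d) (hY : ∀ d, Y d ≤ Y' d) (d : ZMod p) :
    br X Y d ≤ br X' Y' d :=
  br_le (fun _ _ _ hx _ hy => lie_mem_br (hX _ hx) (hY _ hy)) d

/-- Graded Lie subring with trivial component of degree zero. -/
structure IsGr (C : ZMod p → AddSubgroup L) : Prop where
  lie : ∀ a b, ∀ x ∈ C a, ∀ y ∈ C b, ⁅x, y⁆ ∈ C (a + b)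
  zero : C 0 = ⊥

theorem IsGr.eq_zero {C : ZMod p → AddSubgroup L} (h : IsGr C) {d : ZMod p} (hd : d = 0) {x : L} (hx : x ∈ C d) :
    x = 0 := by
  rw [hd, h.zero, AddSubgroup.mem_bot] at hx
  exact hx

/-- The derived series. -/
def der (C : ZMod p → AddSubgroup L) : ℕ → ZMod p → AddSubgroup L
  | 0 => C
  | n + 1 => br (der C n) (der C n)

theorem der_le {C : ZMod p → AddSubgroup L} (h : IsGr C) : ∀ n d, der C n d ≤ C d
  | 0, _ => le_rfl
  | n + 1, d => (br_mono (der_le h n) (der_le h n) d).trans (br_le h.lie d)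

theorem isGr_br {X : ZMod p → AddSubgroup L} (h : IsGr X) : IsGr (br X X) where
  lie a b x hx y hy := lie_mem_br (br_le h.lie a hx) (br_le h.lie b hy)
  zero := le_bot_iff.mp ((br_le h.lie 0).trans h.zero.le)

theorem isGr_der {C : ZMod p → AddSubgroup L} (h : IsGr C) : ∀ n, IsGr (der C n)
  | 0 => h
  | n + 1 => isGr_br (isGr_der h n)

theorem der_der (C : ZMod p → AddSubgroup L) (m : ℕ) : ∀ n, der (der C m) n = der C (m + n)
  | 0 => rfl
  | n + 1 => by
    show br (der (der C m) n) (der (der C m) n) = br (der C (m + n)) (der C (m + n))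
    rw [der_der C m n]

/-- Left-normed products of homogeneous elements of degree above `s`. -/
inductive Word (C : ZMod p → AddSubgroup L) (s : ℕ) : ZMod p → L → Prop
  | base {t : ZMod p} {x : L} : s < t.val → x ∈ C t → Word C s t x
  | step {t d : ZMod p} {l h : L} : s < t.val → l ∈ C t → Word C s d h → Word C s (t + d) ⁅l, h⁆

/-- The subring generated in degrees above `s`. -/
def above (C : ZMod p → AddSubgroup L) (s : ℕ) (d : ZMod p) : AddSubgroup L :=
  AddSubgroup.closure {x | Word C s d x}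

theorem word_mem {C : ZMod p → AddSubgroup L} {s : ℕ} {d : ZMod p} {x : L} (h : Word C s d x) : x ∈ above C s d :=
  AddSubgroup.subset_closure h

theorem above_le {C : ZMod p → AddSubgroup L} (hC : IsGr C) (s : ℕ) (d : ZMod p) : above C s d ≤ C d := by
  rw [above, AddSubgroup.closure_le]
  intro x hx
  induction hx with
  | base _ h => exact h
  | step _ hl _ ih => exact hC.lie _ _ _ hl _ ih

theorem above_eq_bot {C : ZMod p → AddSubgroup L} {s : ℕ} (hs : p - 1 ≤ s) (d : ZMod p) : above C s d = ⊥ := by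
  have hno : ∀ t : ZMod p, ¬ s < t.val := fun t ht => by
    have := ZMod.val_lt t
    omega
  rw [eq_bot_iff, above, AddSubgroup.closure_le]
  intro x hx
  induction hx with
  | base h _ => exact absurd h (hno _)
  | step h _ _ _ => exact absurd h (hno _)

theorem lie_mem_above {C : ZMod p → AddSubgroup L} {s : ℕ} {t d : ZMod p} (ht : s < t.val) {l x : L} (hl : l ∈ C t)
    (hx : x ∈ above C s d) : ⁅l, x⁆ ∈ above C s (t + d) := by
  induction hx using AddSubgroup.closure_induction with
  | mem z hz => exact word_mem (.step ht hl hz)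
  | zero => rw [lie_zero]; exact zero_mem _
  | add a b _ _ iha ihb => rw [lie_add]; exact add_mem iha ihb
  | neg a _ iha => rw [lie_neg]; exact neg_mem iha

theorem above_lie {C : ZMod p → AddSubgroup L} {s : ℕ} (a b : ZMod p) (x : L) (hx : x ∈ above C s a) :
    ∀ y ∈ above C s b, ⁅x, y⁆ ∈ above C s (a + b) := by
  induction hx using AddSubgroup.closure_induction generalizing b with
  | mem z hz =>
    clear x
    induction hz generalizing b with
    | base ht hl => exact fun y hy => lie_mem_above ht hl hy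
    | @step t d l h ht hl hw ih =>
      intro y hy
      rw [lie_lie]
      refine sub_mem ?_ ?_
      · rw [add_assoc]; exact lie_mem_above ht hl (ih b y hy)
      · have := ih (t + b) _ (lie_mem_above ht hl hy)
        rwa [show d + (t + b) = t + d + b by abel] at this
  | zero => intro y _; rw [zero_lie]; exact zero_mem _
  | add u v _ _ ihu ihv => intro y hy; rw [add_lie]; exact add_mem (ihu b y hy) (ihv b y hy)
  | neg u _ ihu => intro y hy; rw [neg_lie]; exact neg_mem (ihu b y hy)

theorem val_natCast_of_lt {m : ℕ} (hm : m < p) : ((m : ℕ) : ZMod p).val = m := by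
  rw [ZMod.val_natCast, Nat.mod_eq_of_lt hm]

/-- In degree `s + 1`, brackets with the subring above `s` lie above `s + 1`. -/
theorem lie_word_mem {C : ZMod p → AddSubgroup L} (hC : IsGr C) {s : ℕ} (hs : s + 1 < p) {d : ZMod p} {h : L}
    (hw : Word C s d h) : ∀ (i : ZMod p), ∀ a ∈ C i, i + d = ((s + 1 : ℕ) : ZMod p) →
      ⁅a, h⁆ ∈ above C (s + 1) ((s + 1 : ℕ) : ZMod p) := by
  have base : ∀ (t : ZMod p) (l : L), s < t.val → l ∈ C t → ∀ (i : ZMod p), ∀ a ∈ C i,
      i + t = ((s + 1 : ℕ) : ZMod p) → ⁅a, l⁆ ∈ above C (s + 1) ((s + 1 : ℕ) : ZMod p) := by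
    intro t l ht hl i a ha hit
    rcases eq_or_ne i 0 with hi | hi
    · rw [hC.eq_zero hi ha, zero_lie]; exact zero_mem _
    have hival : 0 < i.val := Nat.pos_of_ne_zero fun h => hi ((ZMod.val_eq_zero i).mp h)
    have h1 := congrArg ZMod.val hit
    rw [val_natCast_of_lt hs, ZMod.val_add] at h1
    have h2 := ZMod.val_lt i
    have h3 := ZMod.val_lt t
    have hge : ¬ i.val + t.val < p := fun hlt => by rw [Nat.mod_eq_of_lt hlt] at h1; omega
    rw [Nat.mod_eq_sub_mod (by omega), Nat.mod_eq_of_lt (by omega)] at h1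
    rw [← hit]
    exact above_lie i t a (word_mem (.base (by omega) ha)) l (word_mem (.base (by omega) hl))
  induction hw with
  | base ht hl => exact base _ _ ht hl
  | @step t d' l h' ht hl hw ih =>
    intro i a ha hit
    rw [leibniz_lie]
    refine add_mem (ih (i + t) _ (hC.lie _ _ _ ha _ hl) (by rw [← hit]; abel)) ?_
    rw [← lie_skew]
    refine neg_mem (base t l ht hl (i + d') _ (hC.lie _ _ _ ha _ (above_le hC s d' (word_mem hw))) ?_)
    rw [← hit]; abel

/-- Kreknin's lemma. -/
theorem der_le_above (s : ℕ) : ∀ C : ZMod p → AddSubgroup L, IsGr C → ∀ d, der C (2 ^ s - 1) d ≤ above C s d := by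
  induction s with
  | zero =>
    intro C hC d x hx
    change x ∈ C d at hx
    rcases eq_or_ne d 0 with hd | hd
    · rw [hC.eq_zero hd hx]; exact zero_mem _
    · exact word_mem (.base (Nat.pos_of_ne_zero fun h => hd ((ZMod.val_eq_zero d).mp h)) hx)
  | succ s ih =>
    intro C hC d
    have h1 : 1 ≤ 2 ^ s := Nat.one_le_two_pow
    have hK : IsGr (der C (2 ^ s)) := isGr_der hC _
    have hKle : ∀ t : ZMod p, s < t.val → der C (2 ^ s) t ≤ above C (s + 1) t := by
      intro t ht
      rcases Nat.eq_or_lt_of_le (Nat.succ_le_of_lt ht) with he | hlt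
      · have hsp : s + 1 < p := by have := ZMod.val_lt t; omega
        have htt : t = ((s + 1 : ℕ) : ZMod p) := by
          rw [← show t.val = s + 1 from he.symm, ZMod.natCast_zmod_val]
        rw [show 2 ^ s = 2 ^ s - 1 + 1 by omega, htt]
        show br _ _ _ ≤ _
        rw [br, AddSubgroup.closure_le]
        rintro _ ⟨a, b, hab, x, hx, y, hy, rfl⟩
        have hy' := ih C hC b hy
        clear hy
        induction hy' using AddSubgroup.closure_induction with
        | mem z hz => exact lie_word_mem hC hsp hz a x (der_le hC _ a hx) hab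
        | zero => rw [lie_zero]; exact zero_mem _
        | add u v _ _ ihu ihv => rw [lie_add]; exact add_mem ihu ihv
        | neg u _ ihu => rw [lie_neg]; exact neg_mem ihu
      · exact fun x hx => word_mem (.base hlt (der_le hC _ t hx))
    have h2 : 2 ^ (s + 1) - 1 = 2 ^ s + (2 ^ s - 1) := by rw [pow_succ]; omega
    rw [h2, ← der_der]
    refine (ih _ hK d).trans ?_
    rw [above, AddSubgroup.closure_le]
    intro x hx
    induction hx with
    | base ht hl => exact hKle _ ht hl
    | step ht hl _ ihw => exact above_lie _ _ _ (hKle _ ht hl) _ ihw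

/-- The derived series vanishes at `2 ^ (p - 1) - 1`. -/
theorem der_eq_bot {C : ZMod p → AddSubgroup L} (hC : IsGr C) (d : ZMod p) : der C (2 ^ (p - 1) - 1) d = ⊥ :=
  le_bot_iff.mp ((der_le_above (p - 1) C hC d).trans (above_eq_bot le_rfl d).le)

/-- Iterated brackets with `C`. -/
def iterBr (X C : ZMod p → AddSubgroup L) : ℕ → ZMod p → AddSubgroup L
  | 0 => X
  | n + 1 => br (iterBr X C n) C

theorem iterBr_add (X C : ZMod p → AddSubgroup L) (m : ℕ) :
    ∀ n, iterBr (iterBr X C m) C n = iterBr X C (m + n)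
  | 0 => rfl
  | n + 1 => by
    show br (iterBr (iterBr X C m) C n) C = br (iterBr X C (m + n)) C
    rw [iterBr_add X C m n]

theorem iterBr_mono {X X' C : ZMod p → AddSubgroup L} (h : ∀ d, X d ≤ X' d) :
    ∀ n d, iterBr X C n d ≤ iterBr X' C n d
  | 0, d => h d
  | n + 1, d => br_mono (iterBr_mono h n) (fun _ => le_rfl) d

/-- Left-normed bracket with a list. -/
def fold : List (ZMod p × L) → L → L
  | [], m => m
  | z :: l, m => fold l ⁅m, z.2⁆

theorem fold_append : ∀ (l : List (ZMod p × L)) (z : ZMod p × L) (m : L), fold (l ++ [z]) m = ⁅fold l m, z.2⁆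
  | [], _, _ => rfl
  | _ :: l, z, m => fold_append l z _

theorem fold_sub : ∀ (l : List (ZMod p × L)) (m m' : L), fold l (m - m') = fold l m - fold l m'
  | [], _, _ => rfl
  | z :: l, m, m' => by simp only [fold, sub_lie, fold_sub l]

/-- Subset sums. -/
def sums : List (ZMod p × L) → Finset (ZMod p)
  | [] => {0}
  | z :: l => sums l ∪ (sums l).image (z.1 + ·)

theorem zero_mem_sums : ∀ l : List (ZMod p × L), (0 : ZMod p) ∈ sums l
  | [] => Finset.mem_singleton_self 0
  | _ :: l => Finset.mem_union_left _ (zero_mem_sums l)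

theorem le_card_sums : ∀ l : List (ZMod p × L), (∀ z ∈ l, z.1 ≠ 0) → min p (l.length + 1) ≤ (sums l).card
  | [], _ => by simp [sums]
  | z :: l, h => by
    have ih := le_card_sums l fun w hw => h w (List.mem_cons_of_mem _ hw)
    have hz : z.1 ≠ 0 := h z List.mem_cons_self
    by_cases hsub : (sums l).image (z.1 + ·) ⊆ sums l
    · have hall : ∀ k : ℕ, (k : ZMod p) * z.1 ∈ sums l := by
        intro k
        induction k with
        | zero => rw [Nat.cast_zero, zero_mul]; exact zero_mem_sums l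
        | succ k ihk =>
          have := hsub (Finset.mem_image_of_mem _ ihk)
          rwa [Nat.cast_succ, add_one_mul, add_comm]
      have huniv : sums l = Finset.univ := Finset.eq_univ_iff_forall.mpr fun w => by
        have := hall (w * z.1⁻¹).val
        rwa [ZMod.natCast_zmod_val, mul_assoc, inv_mul_cancel₀ hz, mul_one] at this
      have : (sums (z :: l)).card = p := by
        simp only [sums, huniv, Finset.union_eq_left.mpr (Finset.subset_univ _), Finset.card_univ, ZMod.card]
      omega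
    · have hlt : (sums l).card < (sums (z :: l)).card :=
        Finset.card_lt_card (Finset.ssubset_iff_subset_ne.mpr ⟨Finset.subset_union_left, fun he =>
          hsub (Finset.union_eq_left.mp he.symm)⟩)
      simp only [List.length_cons]
      omega

/-- Higman's lemma on a module over a commutative graded ring. -/
theorem fold_mem {C M N : ZMod p → AddSubgroup L} (hMC : ∀ a b, ∀ m ∈ M a, ∀ y ∈ C b, ⁅m, y⁆ ∈ M (a + b))
    (hN : ∀ a b, ∀ m ∈ N a, ∀ y ∈ C b, ⁅m, y⁆ ∈ N (a + b))
    (hM0 : M 0 = ⊥)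
    (hcomm : ∀ a b c, ∀ m ∈ M a, ∀ x ∈ C b, ∀ y ∈ C c, ⁅m, ⁅x, y⁆⁆ ∈ N (a + b + c)) :
    ∀ (l : List (ZMod p × L)), (∀ z ∈ l, z.2 ∈ C z.1) → ∀ (a : ZMod p), ∀ m ∈ M a, -a ∈ sums l →
      fold l m ∈ N (a + (l.map Prod.fst).sum) := by
  have hfoldN : ∀ (l : List (ZMod p × L)), (∀ z ∈ l, z.2 ∈ C z.1) → ∀ a, ∀ m ∈ N a,
      fold l m ∈ N (a + (l.map Prod.fst).sum) := by
    intro l
    induction l with
    | nil => intro _ a m hm; simpa [fold] using hm
    | cons z l ih =>
      intro hl a m hm
      have := ih (fun w hw => hl w (List.mem_cons_of_mem _ hw)) _ _ (hN a z.1 m hm z.2 (hl z List.mem_cons_self))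
      rwa [List.map_cons, List.sum_cons, ← add_assoc]
  have hswap : ∀ (l : List (ZMod p × L)), (∀ z ∈ l, z.2 ∈ C z.1) → ∀ (b : ZMod p), ∀ y ∈ C b, ∀ a, ∀ m ∈ M a,
      fold l ⁅m, y⁆ - ⁅fold l m, y⁆ ∈ N (a + b + (l.map Prod.fst).sum) := by
    intro l
    induction l with
    | nil => intro _ b y _ a m _; simp [fold]
    | cons z l ih =>
      intro hl b y hy a m hm
      have hzl : z.2 ∈ C z.1 := hl z List.mem_cons_self
      have hl' : ∀ w ∈ l, w.2 ∈ C w.1 := fun w hw => hl w (List.mem_cons_of_mem _ hw)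
      have h1 := ih hl' b y hy (a + z.1) _ (hMC a z.1 m hm z.2 hzl)
      have h2 := hfoldN l hl' _ _ (hcomm a b z.1 m hm y hy z.2 hzl)
      have h3 : ⁅⁅m, y⁆, z.2⁆ - ⁅⁅m, z.2⁆, y⁆ = ⁅m, ⁅y, z.2⁆⁆ := by
        rw [leibniz_lie, ← lie_skew y ⁅m, z.2⁆]; abel
      rw [← h3, fold_sub] at h2
      rw [show a + z.1 + b + (l.map Prod.fst).sum = a + b + z.1 + (l.map Prod.fst).sum by abel] at h1
      have h4 := add_mem h2 h1
      rw [sub_add_sub_cancel] at h4
      rwa [List.map_cons, List.sum_cons, ← add_assoc]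
  intro l
  induction l with
  | nil =>
    intro _ a m hm ha
    rw [sums, Finset.mem_singleton, neg_eq_zero] at ha
    rw [ha, hM0, AddSubgroup.mem_bot] at hm
    rw [fold, hm]
    exact zero_mem _
  | cons z l ih =>
    intro hl a m hm ha
    have hzl : z.2 ∈ C z.1 := hl z List.mem_cons_self
    have hl' : ∀ w ∈ l, w.2 ∈ C w.1 := fun w hw => hl w (List.mem_cons_of_mem _ hw)
    rcases Finset.mem_union.mp ha with h | h
    · have h1 := hswap l hl' z.1 z.2 hzl a m hm
      have h2 := hN _ z.1 _ (ih hl' a m hm h) z.2 hzl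
      rw [show a + (l.map Prod.fst).sum + z.1 = a + z.1 + (l.map Prod.fst).sum by abel] at h2
      have h4 := add_mem h1 h2
      rw [sub_add_cancel] at h4
      rwa [List.map_cons, List.sum_cons, ← add_assoc]
    · obtain ⟨e, he, hea⟩ := Finset.mem_image.mp h
      have h1 := ih hl' (a + z.1) _ (hMC a z.1 m hm z.2 hzl) (by
        rwa [show -(a + z.1) = e by rw [neg_add, ← hea]; abel])
      rwa [List.map_cons, List.sum_cons, ← add_assoc]

theorem iterBr_le_closure (X C : ZMod p → AddSubgroup L) : ∀ n d, iterBr X C n d ≤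
    AddSubgroup.closure {x | ∃ (l : List (ZMod p × L)) (a : ZMod p) (m : L), l.length = n ∧
      (∀ z ∈ l, z.2 ∈ C z.1) ∧ m ∈ X a ∧ a + (l.map Prod.fst).sum = d ∧ x = fold l m}
  | 0, d => fun x hx => AddSubgroup.subset_closure ⟨[], d, x, rfl, by simp, hx, by simp, rfl⟩
  | n + 1, d => by
    show br (iterBr X C n) C d ≤ _
    rw [br, AddSubgroup.closure_le]
    rintro _ ⟨a, b, hab, x, hx, y, hy, rfl⟩
    have hx' := iterBr_le_closure X C n a hx
    clear hx
    induction hx' using AddSubgroup.closure_induction with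
    | mem w hw =>
      obtain ⟨l, a', m, hlen, hl, hm, hsum, rfl⟩ := hw
      refine AddSubgroup.subset_closure ⟨l ++ [(b, y)], a', m, by simp [hlen], ?_, hm, ?_, (fold_append l (b, y) m).symm⟩
      · intro z hz
        rcases List.mem_append.mp hz with h | h
        · exact hl z h
        · rw [List.mem_singleton] at h; rw [h]; exact hy
      · rw [List.map_append, List.sum_append, ← hab, ← hsum]; simp [add_assoc]
    | zero => rw [zero_lie]; exact zero_mem _
    | add u v _ _ ihu ihv => rw [add_lie]; exact add_mem ihu ihv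
    | neg u _ ihu => rw [neg_lie]; exact neg_mem ihu

theorem iterBr_le_of_module {C M N : ZMod p → AddSubgroup L} (hC : IsGr C)
    (hMC : ∀ a b, ∀ m ∈ M a, ∀ y ∈ C b, ⁅m, y⁆ ∈ M (a + b))
    (hN : ∀ a b, ∀ m ∈ N a, ∀ y ∈ C b, ⁅m, y⁆ ∈ N (a + b))
    (hM0 : M 0 = ⊥) (hcomm : ∀ a b c, ∀ m ∈ M a, ∀ x ∈ C b, ∀ y ∈ C c, ⁅m, ⁅x, y⁆⁆ ∈ N (a + b + c))
    (d : ZMod p) : iterBr M C (p - 1) d ≤ N d := by
  refine (iterBr_le_closure M C (p - 1) d).trans ?_
  rw [AddSubgroup.closure_le]
  rintro _ ⟨l, a, m, hlen, hl, hm, rfl, rfl⟩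
  by_cases h0 : ∀ z ∈ l, z.1 ≠ 0
  · refine fold_mem hMC hN hM0 hcomm l hl a m hm ?_
    have h1 := le_card_sums l h0
    have hp : p ≤ (sums l).card := by have := (Fact.out : p.Prime).two_le; omega
    rw [Finset.eq_univ_of_card (sums l) (le_antisymm (Finset.card_le_univ _) (by rwa [ZMod.card]))]
    exact Finset.mem_univ _
  · push Not at h0
    obtain ⟨z, hz, hz0⟩ := h0
    have hz2 : z.2 = 0 := hC.eq_zero hz0 (hl z hz)
    have hfz : ∀ (l : List (ZMod p × L)) (m : L), z ∈ l → fold l m = 0 := by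
      intro l
      induction l with
      | nil => intro m h; simp at h
      | cons w l ih =>
        intro m h
        rcases List.mem_cons.mp h with h | h
        · subst h
          have : ∀ l' : List (ZMod p × L), fold l' (0 : L) = 0 := by
            intro l'
            induction l' with
            | nil => rfl
            | cons _ _ ih' => simp only [fold, zero_lie]; exact ih'
          simp only [fold, hz2, lie_zero]
          exact this l
        · exact ih _ h
    rw [hfz l m hz]
    exact zero_mem _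

/-- Higman's bound. -/
theorem iterBr_eq_bot : ∀ (n : ℕ) (C : ZMod p → AddSubgroup L), IsGr C → (∀ d, der C n d = ⊥) →
    ∀ d, iterBr C C (∑ i ∈ Finset.range n, (p - 1) ^ i) d = ⊥ := by
  intro n
  induction n with
  | zero => intro C _ h d; simpa [iterBr, der] using h d
  | succ n ih =>
    intro C hC h d
    set C' := br C C with hC'
    have hC'gr : IsGr C' := isGr_br hC
    have hC'le : ∀ b, C' b ≤ C b := fun b => br_le hC.lie b
    have hlast := ih C' hC'gr (fun e => by
      rw [show C' = der C 1 from rfl, der_der, Nat.add_comm 1 n]; exact h e)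
    have hinv : ∀ j a b, ∀ m ∈ iterBr C' C' j a, ∀ y ∈ C b, ⁅m, y⁆ ∈ iterBr C' C' j (a + b) := by
      intro j
      induction j with
      | zero => exact fun a b m hm y hy => lie_mem_br (hC'le a hm) hy
      | succ j ihj =>
        intro a b m hm y hy
        induction hm using AddSubgroup.closure_induction with
        | mem w hw =>
          obtain ⟨u, v, rfl, x, hx, c, hc, rfl⟩ := hw
          rw [show ⁅⁅x, c⁆, y⁆ = ⁅x, ⁅c, y⁆⁆ + ⁅⁅x, y⁆, c⁆ by rw [leibniz_lie x c y, ← lie_skew c ⁅x, y⁆]; abel]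
          refine add_mem ?_ ?_
          · rw [add_assoc]
            exact lie_mem_br hx (lie_mem_br (hC'le v hc) hy)
          · rw [show u + v + b = u + b + v by abel]
            exact lie_mem_br (ihj u b x hx y hy) hc
        | zero => rw [zero_lie]; exact zero_mem _
        | add u v _ _ ihu ihv => rw [add_lie]; exact add_mem ihu ihv
        | neg u _ ihu => rw [neg_lie]; exact neg_mem ihu
    have hle : ∀ j a, iterBr C' C' j a ≤ C a := by
      intro j
      induction j with
      | zero => exact hC'le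
      | succ j ihj => exact fun a => (br_mono ihj hC'le a).trans (br_le hC.lie a)
    have hstep : ∀ j a, iterBr C C (1 + (p - 1) * j) a ≤ iterBr C' C' j a := by
      intro j
      induction j with
      | zero => intro a; exact le_of_eq rfl
      | succ j ihj =>
        intro a
        rw [show 1 + (p - 1) * (j + 1) = 1 + (p - 1) * j + (p - 1) by ring, ← iterBr_add]
        refine (iterBr_mono ihj (p - 1) a).trans ?_
        refine iterBr_le_of_module hC (hinv j) (hinv (j + 1)) (le_bot_iff.mp ((hle j 0).trans hC.zero.le))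
          (fun a b c m hm x hx y hy => ?_) a
        rw [add_assoc]
        exact lie_mem_br hm (lie_mem_br hx hy)
    rw [Finset.sum_range_succ']
    simp only [pow_succ, pow_zero]
    rw [← Finset.sum_mul, add_comm, mul_comm]
    exact le_bot_iff.mp ((hstep _ d).trans (hlast d).le)

/-- The combined bound. -/
theorem iterBr_eq_bot_kreknin {C : ZMod p → AddSubgroup L} (hC : IsGr C) (d : ZMod p) :
    iterBr C C (∑ i ∈ Finset.range (2 ^ (p - 1) - 1), (p - 1) ^ i) d = ⊥ :=
  iterBr_eq_bot _ C hC (der_eq_bot hC) d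

theorem zmod_three_cases : ∀ u v b : ZMod 3,
    u = 0 ∨ v = 0 ∨ b = 0 ∨ u + v = 0 ∨ u + v + b = 0 ∨ (u + b = 0 ∧ v + b = 0) := by decide

theorem iterBr_eq_bot_three {C : ZMod 3 → AddSubgroup L} (hC : IsGr C) (d : ZMod 3) : iterBr C C 2 d = ⊥ := by
  haveI : Fact (Nat.Prime 3) := ⟨Nat.prime_three⟩
  rw [eq_bot_iff]
  show br (br C C) C d ≤ ⊥
  rw [br, AddSubgroup.closure_le]
  rintro _ ⟨a, b, -, x, hx, y, hy, rfl⟩
  rw [SetLike.mem_coe, AddSubgroup.mem_bot]
  induction hx using AddSubgroup.closure_induction with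
  | mem w hw =>
    obtain ⟨u, v, rfl, e, he, f, hf, rfl⟩ := hw
    rcases zmod_three_cases u v b with h | h | h | h | h | ⟨h1, h2⟩
    · rw [hC.eq_zero h he, zero_lie, zero_lie]
    · rw [hC.eq_zero h hf, lie_zero, zero_lie]
    · rw [hC.eq_zero h hy, lie_zero]
    · rw [hC.eq_zero h (hC.lie _ _ _ he _ hf), zero_lie]
    · exact hC.eq_zero h (hC.lie _ _ _ (hC.lie _ _ _ he _ hf) _ hy)
    · rw [lie_lie, hC.eq_zero h2 (hC.lie _ _ _ hf _ hy), hC.eq_zero h1 (hC.lie _ _ _ he _ hy), lie_zero, lie_zero,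
        sub_zero]
  | zero => rw [zero_lie]
  | add u v _ _ ihu ihv => rw [add_lie, ihu, ihv, add_zero]
  | neg u _ ihu => rw [neg_lie, ihu, neg_zero]

end Cfsg.Agent.Lib.Kreknin
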